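import Mathlib
import Cfsg.Agent.Lib.Helper55.OOG.Defs

/-!
# Project OOG (S2413), package [COXB]: Weyl element times shift is a Coxeter element
-/

set_option autoImplicit false
open scoped Matrix

namespace Cfsg.Agent.Lib.Helper38.OOG

open Cfsg.Agent.Lib.Helper55.OOG

universe u

theorem pkgCoxB : PkgCoxB.{u} := by
  intro n F _ n₀ c hw hs
  obtain ⟨hwE, hwF, hwT, hwj⟩ := hw
  obtain ⟨hs1, ⟨ε, hε, hsE, hsF⟩, hsT⟩ := hs
  refine ⟨?_, ⟨-ε, neg_ne_zero.mpr hε, ?_⟩, ⟨-ε⁻¹, neg_ne_zero.mpr (inv_ne_zero hε), ?_⟩,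
    ⟨-1, neg_ne_zero.mpr one_ne_zero, ?_⟩⟩
  · intro i
    have hne : i.succ ≠ 0 := Fin.succ_ne_zero i
    constructor
    · rw [mul_act, (hs1 i).1]
      exact (hwj i.succ hne).1
    · rw [mul_act, (hs1 i).2]
      exact (hwj i.succ hne).2
  · rw [mul_act, hsE, Matrix.mulVec_smul, hwE, smul_neg, neg_smul]
  · rw [mul_act, hsF, Matrix.mulVec_smul, hwF, smul_neg, neg_smul]
  · rw [mul_act, hsT, hwT, neg_smul, one_smul]

end Cfsg.Agent.Lib.Helper38.OOG
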