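import Mathlib
import Cfsg.Agent.Lib.Helper55.OOG.Defs

/-!
# Project OOG (S2413), package [ORB]: the orbit of `e₀` under a Coxeter element
-/

set_option autoImplicit false
open scoped Matrix

namespace Cfsg.Agent.Lib.Helper38.OOG

open Cfsg.Agent.Lib.Helper55.OOG

universe u

theorem pkgOrb : PkgOrb.{u} := by
  intro n F _ b hb
  obtain ⟨hb1, ⟨ε, hε, hbE⟩, ⟨ε', hε', hbF⟩, ⟨δ, hδ, hbT⟩⟩ := hb
  -- the action on `t`
  have hT : ∀ k : ℕ, mat (b ^ k) *ᵥ (T0 : Vec (n + 1) F) = (δ ^ k) • T0 := by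
    intro k
    induction k with
    | zero => rw [pow_zero, one_act, pow_zero, one_smul]
    | succ k ih =>
      rw [pow_succ', mul_act, ih, Matrix.mulVec_smul, hbT, smul_smul, pow_succ]
  have hE : ∀ i : Fin (n + 1), mat (b ^ i.val) *ᵥ (E 0 : Vec (n + 1) F) = E i := by
    intro i
    induction i using Fin.induction with
    | zero => rw [Fin.val_zero, pow_zero, one_act]
    | succ i ih =>
      rw [Fin.val_succ, pow_succ', mul_act]
      rw [Fin.val_castSucc] at ih
      rw [ih]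
      exact (hb1 i).1
  have hF : ∀ i : Fin (n + 1), mat (b ^ i.val) *ᵥ (Fv 0 : Vec (n + 1) F) = Fv i := by
    intro i
    induction i using Fin.induction with
    | zero => rw [Fin.val_zero, pow_zero, one_act]
    | succ i ih =>
      rw [Fin.val_succ, pow_succ', mul_act]
      rw [Fin.val_castSucc] at ih
      rw [ih]
      exact (hb1 i).2
  have hlast : mat (b ^ (n + 1)) *ᵥ (E 0 : Vec (n + 1) F) = ε • Fv 0 := by
    have h1 := hE (Fin.last n)
    rw [Fin.val_last] at h1
    rw [pow_succ', mul_act, h1, hbE]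
  intro i
  constructor
  · refine ⟨b ^ i.val, Subgroup.pow_mem _ (Subgroup.mem_zpowers b) _, 1, δ ^ i.val, one_ne_zero,
      pow_ne_zero _ hδ, ?_, hT _⟩
    rw [hE i, one_smul]
  · refine ⟨b ^ (i.val + (n + 1)), Subgroup.pow_mem _ (Subgroup.mem_zpowers b) _, ε,
      δ ^ (i.val + (n + 1)), hε, pow_ne_zero _ hδ, ?_, hT _⟩
    rw [pow_add, mul_act, hlast, Matrix.mulVec_smul, hF i]

end Cfsg.Agent.Lib.Helper38.OOG
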